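import Cfsg.Agent.H434.Cov.TwoCyc
import Cfsg.Prelude.Def_Spor_Mathieu

/-!
# `NoTwo (A_n)` for `n` even, modulo S3506 (helper434, S2499, COV-ALT-EVEN)

* `Two3506` : the statement of S3506 (in `Type`);
* `noTwo_even_gen` : `n` even, `n ≥ 14`;
* `noTwo_ten`; `noTwo_twelve` (modulo the facts on elements of order 9).
-/

set_option autoImplicit false

namespace Cfsg.Agent.H434.Cov

open Equiv MulAction Cfsg.Agent.H278.Cov
open scoped Pointwise

/-- the conclusion of S3506 for a group `G` on `n` points -/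
def Concl (G : Type) [Group G] (Ω : Type) [MulAction G Ω] (n : ℕ) : Prop :=
  (MulAction.IsMultiplyPretransitive G Ω 2 ∧ ∃ N : Subgroup G, N.Normal ∧ N ≠ ⊥ ∧ IsMulCommutative N ∧
      ∀ ω : Ω, MulAction.stabilizer N ω = ⊥) ∨
     (∃ p : ℕ, p.Prime ∧ 5 ≤ p ∧ n = p + 1 ∧
        ∃ (F : Type) (_ : Field F) (_ : Fintype F), Fintype.card F = p ∧ ∃ T : Subgroup G, T.Normal ∧
          Nonempty (T ≃* Matrix.ProjectiveSpecialLinearGroup (Fin 2) F)) ∨
     (n = 12 ∧ (Cfsg.Spor.IsoM11 G ∨ Cfsg.Spor.IsoM12 G)) ∨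
     (n = 24 ∧ Cfsg.Spor.IsoM24 G)

/-- the statement of S3506 (in `Type`) -/
def Two3506 : Prop := ∀ {G : Type} [Group G] [Finite G] {Ω : Type} [Fintype Ω] [MulAction G Ω] [FaithfulSMul G Ω]
    [DecidableEq Ω] (_ : MulAction.IsPreprimitive G Ω)
    (_ : ¬ alternatingGroup Ω ≤ (MulAction.toPermHom G Ω).range)
    (g : G) (k l : ℕ) (_ : 1 ≤ k) (_ : k ≤ l) (_ : k + l = Fintype.card Ω) (_ : Nat.Coprime k l)
    (ω₁ ω₂ : Ω) (_ : Nat.card (MulAction.orbit (Subgroup.zpowers g) ω₁) = k)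
    (_ : Nat.card (MulAction.orbit (Subgroup.zpowers g) ω₂) = l)
    (_ : ω₂ ∉ MulAction.orbit (Subgroup.zpowers g) ω₁),
    k = 1 ∧ Concl G Ω (Fintype.card Ω)

variable {n : ℕ}

/-- the image in `S_n` of a subgroup of `A_n` -/
abbrev Im (H : Subgroup ↥(alternatingGroup (Fin n))) : Subgroup (Perm (Fin n)) := H.map (alternatingGroup (Fin n)).subtype

theorem not_alt_le {H : Subgroup ↥(alternatingGroup (Fin n))} (hH : H ≠ ⊤) :
    ¬ alternatingGroup (Fin n) ≤ (MulAction.toPermHom (Im H) (Fin n)).range := by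
  intro hc
  apply hH
  rw [eq_top_iff]
  rintro ⟨a, ha⟩ -
  obtain ⟨⟨b, hb⟩, hb2⟩ := hc ha
  have h1 : b = a := by
    rw [← hb2]
    rfl
  obtain ⟨c, hc, hc2⟩ := hb
  have h2 : c = ⟨a, ha⟩ := Subtype.ext (hc2.trans h1)
  rwa [← h2]

theorem two_cases (h35 : Two3506) {H : Subgroup ↥(alternatingGroup (Fin n))} (hH : H ≠ ⊤)
    {g : ↥(alternatingGroup (Fin n))} (hg : g ∈ H) {Δ : Set (Fin n)} (h : Two (g : Perm (Fin n)) Δ)
    (hne : 1 ≤ Δ.ncard) (hlt : Δ.ncard ≤ Δᶜ.ncard) (hco : Nat.Coprime Δ.ncard Δᶜ.ncard) :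
    (∀ a ∈ H, ∀ x, (a : Perm (Fin n)) x ∈ Δ ↔ x ∈ Δ) ∨ (Δ.ncard = 1 ∧ Concl ↥(Im H) (Fin n) n) := by
  have hgK : (g : Perm (Fin n)) ∈ Im H := ⟨g, hg, rfl⟩
  have hΔ : Δ.Nonempty := by
    rw [← Set.ncard_pos]
    omega
  have hΔc : Δᶜ.Nonempty := by
    rw [← Set.ncard_pos]
    omega
  by_cases htr : IsPretransitive (Im H) (Fin n)
  · right
    have hp := h.prim hco hgK htr
    obtain ⟨x, hx⟩ := hΔ
    obtain ⟨y, hy⟩ := hΔc
    have ho : ∀ z : Fin n, orbit (Subgroup.zpowers (⟨g, hgK⟩ : ↥(Im H))) z = orbit (Subgroup.zpowers (g : Perm (Fin n))) z := by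
      intro z
      ext w
      rw [mem_orbit_iff, mem_orbit_iff]
      constructor
      · rintro ⟨⟨c, hc⟩, rfl⟩
        obtain ⟨i, rfl⟩ := Subgroup.mem_zpowers_iff.1 hc
        exact ⟨⟨(g : Perm (Fin n)) ^ i, Subgroup.zpow_mem_zpowers _ i⟩, rfl⟩
      · rintro ⟨⟨c, hc⟩, rfl⟩
        obtain ⟨i, rfl⟩ := Subgroup.mem_zpowers_iff.1 hc
        exact ⟨⟨(⟨g, hgK⟩ : ↥(Im H)) ^ i, Subgroup.zpow_mem_zpowers _ i⟩, rfl⟩
    have hox := h.orbit_eq hx
    have hoy := h.compl.orbit_eq hy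
    have hcard : Δ.ncard + Δᶜ.ncard = Fintype.card (Fin n) := by
      rw [Set.ncard_add_ncard_compl, Nat.card_eq_fintype_card]
    have h1 := h35 hp (not_alt_le hH) (⟨g, hgK⟩ : ↥(Im H)) Δ.ncard Δᶜ.ncard hne hlt
      hcard hco x y
      (by rw [ho, hox]; rfl) (by rw [ho, hoy]; rfl) (by rw [ho, hox]; exact hy)
    rw [Fintype.card_fin] at h1
    exact h1
  · left
    intro a ha x
    exact h.fix_of_not_trans hΔ hgK htr a ⟨a, ha, rfl⟩ x

/-- `g` (with two cycles) does not preserve a set of another size -/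
theorem Two.not_fix {g : Perm (Fin n)} {Δ E : Set (Fin n)} (h : Two g Δ) (h0 : 1 ≤ E.ncard) (h1 : E.ncard ≠ Δ.ncard)
    (h2 : E.ncard ≠ Δᶜ.ncard) (h3 : E.ncard < n) (hE : ∀ x, g x ∈ E ↔ x ∈ E) : False := by
  rcases h.inv_set hE with h4 | h4 | h4 | h4
  · rw [h4, Set.ncard_empty] at h0
    omega
  · exact h1 (by rw [h4])
  · exact h2 (by rw [h4])
  · rw [h4, Set.ncard_univ, Nat.card_eq_fintype_card, Fintype.card_fin] at h3
    omega

/-- conjugates -/
theorem ncard_img (a : Perm (Fin n)) (Δ : Set (Fin n)) : (a '' Δ).ncard = Δ.ncard :=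
  Set.ncard_image_of_injective _ a.injective

theorem ncard_img_compl (a : Perm (Fin n)) (Δ : Set (Fin n)) : (a '' Δ)ᶜ.ncard = Δᶜ.ncard := by
  rw [← Set.image_compl_eq a.bijective, ncard_img]

theorem av_of_fix {H : Subgroup ↥(alternatingGroup (Fin n))} {E : Set (Fin n)}
    (hE : ∀ a ∈ H, ∀ x, (a : Perm (Fin n)) x ∈ E ↔ x ∈ E) (h0 : 1 ≤ E.ncard) (h3 : E.ncard < n)
    {c : ↥(alternatingGroup (Fin n))} {Δ : Set (Fin n)} (h : Two (c : Perm (Fin n)) Δ) (h1 : E.ncard ≠ Δ.ncard)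
    (h2 : E.ncard ≠ Δᶜ.ncard) : Av c H := by
  intro g hg
  have h4 : Two ((g : Perm (Fin n)) * (c : Perm (Fin n)) * (g : Perm (Fin n))⁻¹) ((g : Perm (Fin n)) '' Δ) := h.conj g
  exact h4.not_fix h0 (by rwa [ncard_img]) (by rwa [ncard_img_compl]) h3 (hE _ hg)

/-- the generic argument: two types `[a, n-a]`, `[b, n-b]`, `1 < a < b < n/2`, prime to `n` -/
theorem noTwo_gen (h35 : Two3506) {n a b : ℕ} (hn : Even n) (ha1 : 1 < a) (hab : a < b) (hb : 2 * b < n)
    (hca : Nat.Coprime a n) (hcb : Nat.Coprime b n) : NoTwo ↥(alternatingGroup (Fin n)) := by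
  have hodd : ∀ {k : ℕ}, Nat.Coprime k n → Odd k := by
    intro k hk
    rw [← Nat.not_even_iff_odd]
    intro he
    have := Nat.dvd_gcd he.two_dvd hn.two_dvd
    rw [hk.gcd_eq_one] at this
    omega
  have hco : ∀ {k : ℕ}, k < n → Nat.Coprime k n → Nat.Coprime k (n - k) := by
    intro k hk hkn
    exact (Nat.coprime_sub_self_right hk.le).2 hkn
  obtain ⟨x, Δ, hx, hx1, hx2, -⟩ := exists_two hn (hodd hca) (by omega)
  obtain ⟨y, Γ, hy, hy1, hy2, -⟩ := exists_two hn (hodd hcb) (by omega)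
  obtain ⟨z, Λ, hz, hz1, hz2, -⟩ := exists_two (n := n) (k := 1) hn odd_one (by omega)
  have hfix : ∀ {k : ℕ} (H : Subgroup ↥(alternatingGroup (Fin n))), H ≠ ⊤ → 1 < k → 2 * k < n → Nat.Coprime k n →
      ∀ (g : ↥(alternatingGroup (Fin n))) (Δ : Set (Fin n)), g ∈ H → Two (g : Perm (Fin n)) Δ → Δ.ncard = k →
      Δᶜ.ncard = n - k → (∀ a ∈ H, ∀ x, (a : Perm (Fin n)) x ∈ Δ ↔ x ∈ Δ) := by
    intro k H hH hk hkn hk2 g Δ hg hΔ h1 h2
    rcases two_cases h35 hH hg hΔ (by omega) (by omega) (by rw [h1, h2]; exact hco (by omega) hk2) with h3 | h3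
    · exact h3
    · omega
  refine noTwo_of_two (a := x) (b := y) ?_ ?_
  · intro H hH
    by_contra hc
    push Not at hc
    obtain ⟨g, hg⟩ := not_av hc.1
    obtain ⟨g', hg'⟩ := not_av hc.2
    have h1 : Two ((g : Perm (Fin n)) * (x : Perm (Fin n)) * (g : Perm (Fin n))⁻¹) ((g : Perm (Fin n)) '' Δ) := hx.conj g
    have h2 := hfix H hH.1 ha1 (by omega) hca _ _ hg h1 (by rw [ncard_img, hx1]) (by rw [ncard_img_compl, hx2])
    have h3 := av_of_fix h2 (by rw [ncard_img]; omega) (by rw [ncard_img]; omega) hy (by rw [ncard_img]; omega)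
      (by rw [ncard_img]; omega)
    exact h3 g' hg'
  · intro H K hH hK haH hbK
    have h1 := hfix H hH.1 ha1 (by omega) hca _ _ haH hx hx1 hx2
    have h2 := hfix K hK.1 (by omega) hb hcb _ _ hbK hy hy1 hy2
    exact ⟨z, av_of_fix h1 (by omega) (by omega) hz (by omega) (by omega),
      av_of_fix h2 (by omega) (by omega) hz (by omega) (by omega)⟩

theorem odd_cop {a : ℕ} (h : Odd a) (k : ℕ) : Nat.Coprime a (2 ^ k) := (Nat.coprime_two_right.2 h).pow_right k

/-- **`n` even, `n ≥ 14`** -/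
theorem noTwo_big (h35 : Two3506) {n : ℕ} (hn : Even n) (h14 : 14 ≤ n) : NoTwo ↥(alternatingGroup (Fin n)) := by
  obtain ⟨m, hm⟩ := hn
  rcases Nat.even_or_odd m with ⟨r, hr⟩ | ⟨r, hr⟩
  · rcases Nat.even_or_odd r with ⟨s, hs⟩ | ⟨s, hs⟩
    · -- n = 8 s
      obtain rfl : n = 2 ^ 3 * s := by omega
      obtain ⟨t, rfl⟩ : ∃ t, s = t + 1 := ⟨s - 1, by omega⟩
      refine noTwo_gen h35 (a := 2 * t + 1) (b := 4 * t + 3) ⟨4 * (t + 1), by ring⟩ (by omega) (by omega) (by omega) ?_ ?_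
      · refine Nat.Coprime.mul_right (odd_cop ⟨t, rfl⟩ 3) ?_
        exact Nat.isCoprime_iff_coprime.1 ⟨-1, 2, by push_cast; ring⟩
      · refine Nat.Coprime.mul_right (odd_cop ⟨2 * t + 1, by ring⟩ 3) ?_
        exact Nat.isCoprime_iff_coprime.1 ⟨-1, 4, by push_cast; ring⟩
    · -- n = 4 (2 s + 1)
      obtain rfl : n = 2 ^ 2 * (2 * s + 1) := by omega
      obtain ⟨t, rfl⟩ : ∃ t, s = t + 1 := ⟨s - 1, by omega⟩
      refine noTwo_gen h35 (a := 2 * t + 1) (b := 4 * t + 5) ⟨2 * (2 * (t + 1) + 1), by ring⟩ (by omega) (by omega)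
        (by omega) ?_ ?_
      · refine Nat.Coprime.mul_right (odd_cop ⟨t, rfl⟩ 2) ?_
        exact Nat.isCoprime_iff_coprime.1 ⟨-(t + 2), t + 1, by push_cast; ring⟩
      · refine Nat.Coprime.mul_right (odd_cop ⟨2 * t + 2, by ring⟩ 2) ?_
        exact Nat.isCoprime_iff_coprime.1 ⟨-1, 2, by push_cast; ring⟩
  · -- n = 2 (2 r + 1)
    obtain rfl : n = 2 ^ 1 * (2 * r + 1) := by omega
    obtain ⟨t, rfl⟩ : ∃ t, r = t + 2 := ⟨r - 2, by omega⟩
    refine noTwo_gen h35 (a := 2 * t + 1) (b := 2 * t + 3) ⟨2 * (t + 2) + 1, by ring⟩ (by omega) (by omega)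
        (by omega) ?_ ?_
    · refine Nat.Coprime.mul_right (odd_cop ⟨t, rfl⟩ 1) ?_
      have : 2 * (t + 2) + 1 = (2 * t + 1) + 2 ^ 2 := by ring
      rw [this, Nat.coprime_self_add_right]
      exact odd_cop ⟨t, rfl⟩ 2
    · refine Nat.Coprime.mul_right (odd_cop ⟨t + 1, by ring⟩ 1) ?_
      have : 2 * (t + 2) + 1 = (2 * t + 3) + 2 ^ 1 := by ring
      rw [this, Nat.coprime_self_add_right]
      exact odd_cop ⟨t + 1, by ring⟩ 1

/-! ### `n = 10` -/

/-- a 2-transitive group with a regular abelian normal subgroup: the degree is a prime power -/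
theorem affine_prime {G Ω : Type} [Group G] [Finite G] [Finite Ω] [MulAction G Ω] (h2 : IsMultiplyPretransitive G Ω 2)
    {N : Subgroup G} (hN : N.Normal) (hNt : IsPretransitive N Ω) (hreg : ∀ ω : Ω, MulAction.stabilizer N ω = ⊥)
    (ω : Ω) {p q : ℕ} (hp : p.Prime) (hq : q.Prime) (hpd : p ∣ Nat.card Ω) (hqd : q ∣ Nat.card Ω) : p = q := by
  have hcard : Nat.card N = Nat.card Ω := by
    have h1 := Nat.card_congr (MulAction.orbitProdStabilizerEquivGroup N ω)
    rw [hreg ω, Nat.card_prod, Subgroup.card_bot, mul_one, orbit_eq_univ] at h1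
    rw [← h1]
    exact Nat.card_congr (Equiv.Set.univ Ω)
  have : Fact p.Prime := ⟨hp⟩
  have : Fact q.Prime := ⟨hq⟩
  obtain ⟨a, ha⟩ := exists_prime_orderOf_dvd_card' (G := N) p (hcard ▸ hpd)
  obtain ⟨b, hb⟩ := exists_prime_orderOf_dvd_card' (G := N) q (hcard ▸ hqd)
  have hmove : ∀ {c : N}, c ≠ 1 → c • ω ≠ ω := by
    intro c hc h1
    apply hc
    have h3 : c ∈ MulAction.stabilizer N ω := h1
    rwa [hreg ω, Subgroup.mem_bot] at h3
  have ha1 : a ≠ 1 := by rintro rfl; rw [orderOf_one] at ha; exact hp.one_lt.ne ha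
  have hb1 : b ≠ 1 := by rintro rfl; rw [orderOf_one] at hb; exact hq.one_lt.ne hb
  obtain ⟨g, hg1, hg2⟩ := (is_two_pretransitive_iff.1 h2) (hmove ha1).symm (hmove hb1).symm
  have hgc : (⟨g * a * g⁻¹, hN.conj_mem _ a.2 g⟩ : N) = b := by
    have h3 : (b⁻¹ * ⟨g * a * g⁻¹, hN.conj_mem _ a.2 g⟩ : N) ∈ MulAction.stabilizer N ω := by
      rw [mem_stabilizer_iff, mul_smul, inv_smul_eq_iff]
      show (g * (a : G) * g⁻¹) • ω = b • ω
      rw [mul_smul, mul_smul]
      have h4 : g⁻¹ • ω = ω := by rw [inv_smul_eq_iff]; exact hg1.symm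
      rw [h4]
      exact hg2
    rw [hreg ω, Subgroup.mem_bot, inv_mul_eq_one] at h3
    exact h3.symm
  have h5 : MulAut.conj g (a : G) = b := congrArg Subtype.val hgc
  rw [← ha, ← hb, ← Subgroup.orderOf_coe b, ← h5, MulEquiv.orderOf_eq, Subgroup.orderOf_coe]

/-- the affine case is impossible if `n` has two prime divisors -/
theorem not_affine {n : ℕ} {K : Subgroup (Perm (Fin n))} (hn : 0 < n)
    (h : MulAction.IsMultiplyPretransitive ↥K (Fin n) 2 ∧ ∃ N : Subgroup ↥K, N.Normal ∧ N ≠ ⊥ ∧ IsMulCommutative N ∧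
      ∀ ω : Fin n, MulAction.stabilizer N ω = ⊥) {p q : ℕ} (hp : p.Prime) (hq : q.Prime) (hpq : p ≠ q) (hpd : p ∣ n)
    (hqd : q ∣ n) : False := by
  obtain ⟨h2, N, hN, hN1, -, hreg⟩ := h
  have hprim : IsPreprimitive ↥K (Fin n) := isPreprimitive_of_is_two_pretransitive h2
  have hNt : IsPretransitive N (Fin n) := by
    apply hprim.isQuasiPreprimitive.isPretransitive_of_normal
    intro hc
    apply hN1
    rw [Subgroup.eq_bot_iff_forall]
    intro c hc'
    have h3 : ∀ x, (c : Perm (Fin n)) x = x := by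
      intro x
      have h4 : x ∈ fixedPoints N (Fin n) := by rw [hc]; trivial
      exact h4 ⟨c, hc'⟩
    exact Subtype.ext (Equiv.ext h3)
  exact hpq (affine_prime h2 hN hNt hreg ⟨0, hn⟩ hp hq (by rwa [Nat.card_eq_fintype_card, Fintype.card_fin])
    (by rwa [Nat.card_eq_fintype_card, Fintype.card_fin]))

theorem noTwo_ten (h35 : Two3506) : NoTwo ↥(alternatingGroup (Fin 10)) := by
  have he : Even 10 := ⟨5, rfl⟩
  obtain ⟨x, Δ, hx, hx1, hx2, -⟩ := exists_two he (k := 3) ⟨1, rfl⟩ (by omega)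
  obtain ⟨y, Γ, hy, hy1, hy2, -⟩ := exists_two he (k := 1) odd_one (by omega)
  obtain ⟨z, Λ, hz, hz1, hz2, -⟩ := exists_two he (k := 5) ⟨2, rfl⟩ (by omega)
  have hfix : ∀ (H : Subgroup ↥(alternatingGroup (Fin 10))), H ≠ ⊤ →
      ∀ (g : ↥(alternatingGroup (Fin 10))) (Δ : Set (Fin 10)), g ∈ H → Two (g : Perm (Fin 10)) Δ → Δ.ncard = 3 →
      Δᶜ.ncard = 10 - 3 → (∀ a ∈ H, ∀ x, (a : Perm (Fin 10)) x ∈ Δ ↔ x ∈ Δ) := by
    intro H hH g Δ hg hΔ h1 h2
    rcases two_cases h35 hH hg hΔ (by omega) (by omega) (by rw [h1, h2]; norm_num) with h3 | h3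
    · exact h3
    · omega
  refine noTwo_of_two (a := x) (b := y) ?_ ?_
  · intro H hH
    by_contra hc
    push Not at hc
    obtain ⟨g, hg⟩ := not_av hc.1
    obtain ⟨g', hg'⟩ := not_av hc.2
    have h1 : Two ((g : Perm (Fin 10)) * (x : Perm (Fin 10)) * (g : Perm (Fin 10))⁻¹) ((g : Perm (Fin 10)) '' Δ) := hx.conj g
    have h2 := hfix H hH.1 _ _ hg h1 (by rw [ncard_img, hx1]) (by rw [ncard_img_compl, hx2])
    have h3 := av_of_fix h2 (by rw [ncard_img]; omega) (by rw [ncard_img]; omega) hy (by rw [ncard_img]; omega)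
      (by rw [ncard_img]; omega)
    exact h3 g' hg'
  · intro H K hH hK haH hbK
    have h1 := hfix H hH.1 _ _ haH hx hx1 hx2
    refine ⟨z, av_of_fix h1 (by omega) (by omega) hz (by omega) (by omega), ?_⟩
    rcases two_cases h35 hK.1 hbK hy (by omega) (by omega) (by rw [hy1, hy2]; norm_num) with h3 | ⟨-, h3⟩
    · exact av_of_fix h3 (by omega) (by omega) hz (by omega) (by omega)
    · rcases h3 with h3 | ⟨p, hp, -, hp2, -⟩ | h3 | h3
      · exact (not_affine (by norm_num) h3 Nat.prime_two Nat.prime_five (by norm_num) (by norm_num) (by norm_num)).elim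
      · obtain rfl : p = 9 := by omega
        norm_num at hp
      · omega
      · omega

/-! ### `n = 12` -/

theorem cube11 : ∀ t : ZMod 11, t ^ 3 = 1 → t = 1 := by decide

/-- a group of permutations of 12 points with a normal subgroup of order 660 has no elements of order 9 -/
theorem not_nine {K : Subgroup (Perm (Fin 12))} {T : Subgroup ↥K} (hT : T.Normal) (hc : Nat.card T = 660) (c : ↥K) :
    orderOf c ≠ 9 := by
  intro h9
  have : Fact (Nat.Prime 11) := ⟨by norm_num⟩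
  have : Fact (Nat.Prime 3) := ⟨by norm_num⟩
  have h3 : 3 ∣ T.index := by
    have h1 : 9 ∣ Nat.card ↥K := h9 ▸ orderOf_dvd_natCard c
    rw [← T.card_mul_index, hc] at h1
    have h2 : 3 * 3 ∣ 3 * (220 * T.index) := by
      have e : 3 * (220 * T.index) = 660 * T.index := by ring
      rw [e]
      exact h1
    have h4 := Nat.dvd_of_mul_dvd_mul_left (by norm_num) h2
    exact (Nat.Coprime.dvd_mul_left (by norm_num : Nat.Coprime 3 220)).1 h4
  let P : Sylow 11 T := default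
  have hP : Nat.card P = 11 := by
    rw [P.card_eq_multiplicity, hc]
    have : (660 : ℕ).factorization 11 = 1 := by
      have e : (660 : ℕ) = 11 * 60 := rfl
      rw [e, Nat.factorization_mul (by norm_num) (by norm_num), Finsupp.add_apply,
        Nat.Prime.factorization_self (by norm_num), Nat.factorization_eq_zero_of_not_dvd (by norm_num)]
    rw [this, pow_one]
  set R : Subgroup ↥K := (P : Subgroup T).map T.subtype with hR
  have hRc : Nat.card R = 11 := by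
    rw [hR, Subgroup.card_map_of_injective T.subtype_injective]
    exact hP
  have hfr : Subgroup.normalizer (R : Set ↥K) ⊔ T = ⊤ := Sylow.normalizer_sup_eq_top P
  have h5 : T.index ∣ Nat.card ↥(Subgroup.normalizer (R : Set ↥K)) := by
    rw [← Subgroup.relIndex_top_right, ← hfr, Subgroup.relIndex_sup_right]
    exact Subgroup.relIndex_dvd_card _ _
  obtain ⟨⟨y, hyN⟩, hy⟩ := exists_prime_orderOf_dvd_card' (G := ↥(Subgroup.normalizer (R : Set ↥K))) 3 (h3.trans h5)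
  rw [Subgroup.orderOf_mk] at hy
  obtain ⟨r, hr⟩ := exists_prime_orderOf_dvd_card' (G := R) 11 (by rw [hRc])
  have hr' : orderOf (r : ↥K) = 11 := by rw [Subgroup.orderOf_coe, hr]
  have hRz : R = Subgroup.zpowers (r : ↥K) := by
    symm
    apply Subgroup.eq_of_le_of_card_ge (Subgroup.zpowers_le.2 r.2)
    rw [hRc, Nat.card_zpowers, hr']
  have hyr : y * (r : ↥K) * y⁻¹ ∈ R := (Subgroup.mem_normalizer_iff.1 hyN _).1 r.2
  have hyr' : y * (r : ↥K) * y⁻¹ ∈ Subgroup.zpowers (r : ↥K) := hRz.le hyr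
  obtain ⟨j, hj⟩ := Subgroup.mem_zpowers_iff.1 hyr'
  have hpow : ∀ i : ℤ, y * (r : ↥K) ^ i * y⁻¹ = (r : ↥K) ^ (j * i) := by
    intro i
    rw [← conj_zpow, ← hj, zpow_mul]
  have hy3 : y ^ 3 = 1 := by rw [← hy, pow_orderOf_eq_one]
  have h6 : (r : ↥K) ^ (j * (j * j)) = r := by
    rw [← hpow, ← hpow, hj]
    have e : y * (y * (y * (r : ↥K) * y⁻¹) * y⁻¹) * y⁻¹ = y ^ 3 * r * (y ^ 3)⁻¹ := by
      simp only [pow_succ, pow_zero, one_mul, mul_inv_rev, mul_assoc]
    rw [e, hy3, one_mul, inv_one, mul_one]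
  have h7 : ((j : ZMod 11)) ^ 3 = 1 := by
    have h8 : (r : ↥K) ^ (j * (j * j) - 1) = 1 := by rw [zpow_sub_one, h6, mul_inv_cancel]
    have h9 : (11 : ℤ) ∣ j * (j * j) - 1 := by
      have := orderOf_dvd_iff_zpow_eq_one.2 h8
      rwa [hr'] at this
    have h10 : ((j * (j * j) - 1 : ℤ) : ZMod 11) = 0 := (ZMod.intCast_zmod_eq_zero_iff_dvd _ 11).2 h9
    push_cast at h10
    linear_combination h10
  have h8 : (j : ZMod 11) = 1 := by
    exact cube11 _ h7
  have h10 : (r : ↥K) ^ j = r := by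
    have h11 : ((j - 1 : ℤ) : ZMod 11) = 0 := by push_cast; rw [h8, sub_self]
    have h12 : (11 : ℤ) ∣ j - 1 := (ZMod.intCast_zmod_eq_zero_iff_dvd _ 11).1 h11
    have h13 : (r : ↥K) ^ (j - 1) = 1 := by
      apply orderOf_dvd_iff_zpow_eq_one.1
      rw [hr']
      exact h12
    rwa [zpow_sub_one, mul_inv_eq_one] at h13
  have hcomm : y * (r : ↥K) = r * y := by
    rw [h10] at hj
    calc y * (r : ↥K) = (y * r * y⁻¹) * y := by group
      _ = r * y := by rw [← hj]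
  -- the centralizer of `r` in `S_12` has order 11
  set ρ : Perm (Fin 12) := ((r : ↥K) : Perm (Fin 12)) with hρ
  have hρo : orderOf ρ = 11 := by rw [hρ, Subgroup.orderOf_coe, hr']
  have hcyc : ρ.IsCycle := Perm.isCycle_of_prime_order' (by rw [hρo]; norm_num)
    (by rw [hρo, Fintype.card_fin]; norm_num)
  have hct : ρ.cycleType = {11} := by
    rw [hcyc.cycleType, ← hcyc.orderOf, hρo]
  have hcen := Perm.nat_card_centralizer ρ
  rw [hct] at hcen
  have h11 : Nat.card ↥(Subgroup.centralizer ({ρ} : Set (Perm (Fin 12)))) = 11 := by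
    rw [hcen]
    decide
  have hmem : (y : Perm (Fin 12)) ∈ Subgroup.centralizer ({ρ} : Set (Perm (Fin 12))) := by
    rw [Subgroup.mem_centralizer_singleton_iff]
    exact congrArg Subtype.val hcomm
  have h12 := orderOf_dvd_natCard (⟨(y : Perm (Fin 12)), hmem⟩ : ↥(Subgroup.centralizer ({ρ} : Set (Perm (Fin 12)))))
  rw [Subgroup.orderOf_mk, Subgroup.orderOf_coe, hy, h11] at h12
  norm_num at h12

/-- **`n = 12`**: `h660` = order of `PSL₂(11)`, `hM` = no element of order 9 in `M₁₁`, `M₁₂` -/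
theorem noTwo_twelve (h35 : Two3506)
    (h660 : ∀ (F : Type) [Field F] [Fintype F], Fintype.card F = 11 →
      Nat.card (Matrix.ProjectiveSpecialLinearGroup (Fin 2) F) = 660)
    (hM : ∀ (G : Type) [Group G], (Cfsg.Spor.IsoM11 G ∨ Cfsg.Spor.IsoM12 G) → ∀ x : G, orderOf x ≠ 9) :
    NoTwo ↥(alternatingGroup (Fin 12)) := by
  have he : Even 12 := ⟨6, rfl⟩
  obtain ⟨x, Δ, hx, hx1, hx2, -⟩ := exists_two he (k := 5) ⟨2, rfl⟩ (by omega)
  obtain ⟨y, Γ, hy, hy1, hy2, -⟩ := exists_two he (k := 1) odd_one (by omega)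
  obtain ⟨z, Λ, hz, hz1, hz2, hz3⟩ := exists_two he (k := 3) ⟨1, rfl⟩ (by omega)
  have hz9 : orderOf z = 9 := by rw [hz3]; rfl
  have hfix : ∀ (H : Subgroup ↥(alternatingGroup (Fin 12))), H ≠ ⊤ →
      ∀ (g : ↥(alternatingGroup (Fin 12))) (Δ : Set (Fin 12)), g ∈ H → Two (g : Perm (Fin 12)) Δ → Δ.ncard = 5 →
      Δᶜ.ncard = 12 - 5 → (∀ a ∈ H, ∀ x, (a : Perm (Fin 12)) x ∈ Δ ↔ x ∈ Δ) := by
    intro H hH g Δ hg hΔ h1 h2
    rcases two_cases h35 hH hg hΔ (by omega) (by omega) (by rw [h1, h2]; norm_num) with h3 | h3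
    · exact h3
    · omega
  refine noTwo_of_two (a := x) (b := y) ?_ ?_
  · intro H hH
    by_contra hc
    push Not at hc
    obtain ⟨g, hg⟩ := not_av hc.1
    obtain ⟨g', hg'⟩ := not_av hc.2
    have h1 : Two ((g : Perm (Fin 12)) * (x : Perm (Fin 12)) * (g : Perm (Fin 12))⁻¹) ((g : Perm (Fin 12)) '' Δ) := hx.conj g
    have h2 := hfix H hH.1 _ _ hg h1 (by rw [ncard_img, hx1]) (by rw [ncard_img_compl, hx2])
    have h3 := av_of_fix h2 (by rw [ncard_img]; omega) (by rw [ncard_img]; omega) hy (by rw [ncard_img]; omega)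
      (by rw [ncard_img]; omega)
    exact h3 g' hg'
  · intro H K hH hK haH hbK
    have h1 := hfix H hH.1 _ _ haH hx hx1 hx2
    refine ⟨z, av_of_fix h1 (by omega) (by omega) hz (by omega) (by omega), ?_⟩
    rcases two_cases h35 hK.1 hbK hy (by omega) (by omega) (by rw [hy1, hy2]; norm_num) with h3 | ⟨-, h3⟩
    · exact av_of_fix h3 (by omega) (by omega) hz (by omega) (by omega)
    · have h9 : (∀ c : ↥(Im K), orderOf c ≠ 9) → Av z K := by
        intro h9
        apply av_of_order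
        intro c hc ho
        rw [hz9] at ho
        have hc' : (c : Perm (Fin 12)) ∈ Im K := ⟨c, hc, rfl⟩
        apply h9 ⟨(c : Perm (Fin 12)), hc'⟩
        rw [Subgroup.orderOf_mk, Subgroup.orderOf_coe, ho]
      apply h9
      rcases h3 with h3 | ⟨p, hp, -, hp2, F, iF, iF', hF, T, hT, ⟨e⟩⟩ | ⟨-, h3⟩ | h3
      · exact (not_affine (by norm_num) h3 Nat.prime_two Nat.prime_three (by norm_num) (by norm_num) (by norm_num)).elim
      · obtain rfl : p = 11 := by omega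
        exact not_nine hT (by rw [Nat.card_congr e.toEquiv]; exact h660 F hF)
      · exact hM _ h3
      · omega

end Cfsg.Agent.H434.Cov
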