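import Cfsg.Agent.H385.SpNine
import Cfsg.Agent.SmallSimple.PSLTwoPart

/-!
# Facts for `n = 12` (helper434, S2499, COV-ALT-EVEN)
-/

set_option autoImplicit false

namespace Cfsg.Agent.H434.Cov

theorem card_660 (F : Type) [Field F] [Fintype F] (hF : Fintype.card F = 11) :
    Nat.card (Matrix.ProjectiveSpecialLinearGroup (Fin 2) F) = 660 := by
  have h := Cfsg.Agent.SmallSimple.PSLTwoPart.card_psl_two_odd (F := F) (by rw [hF]; decide)
  rw [hF] at h
  omega

theorem mathieu_nine (G : Type) [Group G] (h : Cfsg.Spor.IsoM11 G ∨ Cfsg.Spor.IsoM12 G) (x : G) : orderOf x ≠ 9 := by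
  have key : ∀ y : ↥Cfsg.Spor.M12, orderOf y ≠ 9 := by
    intro y hy
    have hle : Cfsg.Spor.M12 ≤ Cfsg.M24 := fun _ h => h.1
    exact Cfsg.Agent.H385.Sp.m24_nine_model (Subgroup.inclusion hle y)
      (by rw [orderOf_injective _ (Subgroup.inclusion_injective _), hy])
  intro hx
  rcases h with ⟨⟨e⟩⟩ | ⟨⟨e⟩⟩
  · have hle : Cfsg.Spor.M11 ≤ Cfsg.Spor.M12 := fun _ h => h.1
    exact key (Subgroup.inclusion hle (e x))
      (by rw [orderOf_injective _ (Subgroup.inclusion_injective _), MulEquiv.orderOf_eq, hx])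
  · exact key (e x) (by rw [MulEquiv.orderOf_eq, hx])

end Cfsg.Agent.H434.Cov
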