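import Cfsg.Agent.H278.Cov.Defs

/-!
# Permutations with two cycles and their transitive overgroups (helper434, S2499, COV-ALT-EVEN)

* `Two g Δ` : `⟨g⟩` has exactly the orbits `Δ` and `Δᶜ`;
* `prim_of_two` : a transitive group containing `g` with two cycles of coprime lengths is primitive;
* `exists_two` : for `n` even, `k` odd there is such an element of `A_n` with `|Δ| = k`.
-/

set_option autoImplicit false

namespace Cfsg.Agent.H434.Cov

open Equiv MulAction
open scoped Pointwise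

section

variable {Ω : Type*}

theorem ai (e : Perm Ω) (x : Ω) : e (e⁻¹ x) = x := e.apply_symm_apply x

theorem ia (e : Perm Ω) (x : Ω) : e⁻¹ (e x) = x := e.symm_apply_apply x

/-- `⟨g⟩` has exactly the orbits `Δ` and `Δᶜ` -/
structure Two (g : Perm Ω) (Δ : Set Ω) : Prop where
  inv : ∀ x, g x ∈ Δ ↔ x ∈ Δ
  tr : ∀ x ∈ Δ, ∀ y ∈ Δ, ∃ i : ℤ, (g ^ i) x = y
  tr' : ∀ x ∉ Δ, ∀ y ∉ Δ, ∃ i : ℤ, (g ^ i) x = y

theorem Two.compl {g : Perm Ω} {Δ : Set Ω} (h : Two g Δ) : Two g Δᶜ where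
  inv x := not_congr (h.inv x)
  tr x hx y hy := h.tr' x hx y hy
  tr' x hx y hy := h.tr x (not_not.1 hx) y (not_not.1 hy)

theorem zpow_mem_iff {g : Perm Ω} {E : Set Ω} (h : ∀ x, g x ∈ E ↔ x ∈ E) (i : ℤ) (x : Ω) :
    (g ^ i) x ∈ E ↔ x ∈ E := by
  have hi : ∀ x, g⁻¹ x ∈ E ↔ x ∈ E := fun x => by rw [← h (g⁻¹ x), ai]
  revert x
  induction i using Int.induction_on with
  | zero => intro x; simp
  | succ n ih => intro x; rw [zpow_add_one, Perm.mul_apply]; exact (ih (g x)).trans (h x)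
  | pred n ih => intro x; rw [zpow_sub_one, Perm.mul_apply]; exact (ih (g⁻¹ x)).trans (hi x)

/-- the invariant sets -/
theorem Two.inv_set {g : Perm Ω} {Δ : Set Ω} (h : Two g Δ) {E : Set Ω} (hE : ∀ x, g x ∈ E ↔ x ∈ E) :
    E = ∅ ∨ E = Δ ∨ E = Δᶜ ∨ E = Set.univ := by
  have key : ∀ {D : Set Ω}, (∀ x ∈ D, ∀ y ∈ D, ∃ i : ℤ, (g ^ i) x = y) → D ⊆ E ∨ D ⊆ Eᶜ := by
    intro D hD
    by_cases hc : ∃ x ∈ D, x ∈ E
    · obtain ⟨x, hx, hxE⟩ := hc
      left
      intro y hy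
      obtain ⟨i, rfl⟩ := hD x hx y hy
      exact (zpow_mem_iff hE i x).2 hxE
    · right
      intro y hy hyE
      exact hc ⟨y, hy, hyE⟩
  rcases key h.tr with h1 | h1 <;> rcases key (D := Δᶜ) (fun x hx y hy => h.tr' x hx y hy) with h2 | h2
  · right; right; right
    rw [Set.eq_univ_iff_forall]
    intro x
    by_cases hx : x ∈ Δ
    · exact h1 hx
    · exact h2 hx
  · right; left
    refine Set.Subset.antisymm (fun x hx => ?_) h1
    by_contra hc
    exact h2 hc hx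
  · right; right; left
    refine Set.Subset.antisymm (fun x hx hc => h1 hc hx) h2
  · left
    rw [Set.eq_empty_iff_forall_notMem]
    intro x hx
    by_cases hc : x ∈ Δ
    · exact h1 hc hx
    · exact h2 hc hx

theorem Two.conj {g : Perm Ω} {Δ : Set Ω} (h : Two g Δ) (a : Perm Ω) : Two (a * g * a⁻¹) (a '' Δ) := by
  have hm : ∀ x, x ∈ a '' Δ ↔ a⁻¹ x ∈ Δ := by
    intro x
    rw [Set.mem_image]
    constructor
    · rintro ⟨y, hy, rfl⟩
      rwa [ia]
    · intro hx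
      exact ⟨_, hx, ai _ _⟩
  refine ⟨fun x => ?_, fun x hx y hy => ?_, fun x hx y hy => ?_⟩
  · rw [hm, hm, Perm.mul_apply, Perm.mul_apply, ia, h.inv]
  · obtain ⟨i, hi⟩ := h.tr _ ((hm x).1 hx) _ ((hm y).1 hy)
    refine ⟨i, ?_⟩
    rw [conj_zpow, Perm.mul_apply, Perm.mul_apply, hi, ai]
  · obtain ⟨i, hi⟩ := h.tr' _ (fun hc => hx ((hm x).2 hc)) _ (fun hc => hy ((hm y).2 hc))
    refine ⟨i, ?_⟩
    rw [conj_zpow, Perm.mul_apply, Perm.mul_apply, hi, ai]

theorem Two.orbit_eq {g : Perm Ω} {Δ : Set Ω} (h : Two g Δ) {x : Ω} (hx : x ∈ Δ) :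
    orbit (Subgroup.zpowers g) x = Δ := by
  ext y
  rw [mem_orbit_iff]
  constructor
  · rintro ⟨⟨z, hz⟩, rfl⟩
    obtain ⟨i, rfl⟩ := Subgroup.mem_zpowers_iff.1 hz
    exact (zpow_mem_iff h.inv i x).2 hx
  · intro hy
    obtain ⟨i, rfl⟩ := h.tr x hx y hy
    exact ⟨⟨g ^ i, Subgroup.zpow_mem_zpowers g i⟩, rfl⟩

theorem Two.pow_fix [Finite Ω] {g : Perm Ω} {Δ : Set Ω} (h : Two g Δ) {x : Ω} (hx : x ∈ Δ) {k : ℕ}
    (hk : Δ.ncard = k) : (g ^ k) x = x := by
  have h1 := h.orbit_eq hx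
  have h2 : Nat.card (orbit (Subgroup.zpowers g) x) = k := by rw [h1, ← hk]; rfl
  have h3 := MulAction.pow_smul_eq_iff_minimalPeriod_dvd (a := g) (b := x) (n := k)
  have h4 : Function.minimalPeriod (g • ·) x = k := by
    rw [← h2, ← Nat.card_zmod (Function.minimalPeriod (g • ·) x)]
    exact (Nat.card_congr (MulAction.orbitZPowersEquiv g x)).symm
  exact h3.2 (by rw [h4])

/-- a block of a group containing `g`, which meets both cycles, is everything -/
theorem Two.block_eq_univ [Finite Ω] {g : Perm Ω} {Δ : Set Ω} (h : Two g Δ)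
    (hco : Nat.Coprime Δ.ncard Δᶜ.ncard) {K : Subgroup (Perm Ω)} (hg : g ∈ K) {B : Set Ω} (hB : IsBlock K B)
    {x y : Ω} (hx : x ∈ B) (hxΔ : x ∈ Δ) (hy : y ∈ B) (hyΔ : y ∉ Δ) : B = Set.univ := by
  have hst : ∀ (i : ℕ) (z : Ω), z ∈ B → (g ^ i) z = z → ((⟨g, hg⟩ : K) ^ i) • B = B := by
    intro i z hz hzi
    have h1 : ¬ Disjoint (((⟨g, hg⟩ : K) ^ i) • B) B := by
      rw [Set.not_disjoint_iff]
      refine ⟨z, ?_, hz⟩
      rw [Set.mem_smul_set]
      exact ⟨z, hz, hzi⟩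
    exact (isBlock_iff_smul_eq_or_disjoint.1 hB _).resolve_right h1
  have h1 := hst _ x hx (h.pow_fix hxΔ rfl)
  have h2 := hst _ y hy (h.compl.pow_fix hyΔ rfl)
  have h3 : (⟨g, hg⟩ : K) • B = B := by
    have ha : (⟨g, hg⟩ : K) ^ Δ.ncard ∈ stabilizer K B := h1
    have hb : (⟨g, hg⟩ : K) ^ Δᶜ.ncard ∈ stabilizer K B := h2
    have hc : (⟨g, hg⟩ : K) ^ (1 : ℤ) ∈ stabilizer K B := by
      have := Nat.gcd_eq_gcd_ab Δ.ncard Δᶜ.ncard
      rw [hco.gcd_eq_one] at this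
      rw [← Nat.cast_one, this, zpow_add, zpow_mul, zpow_mul, zpow_natCast, zpow_natCast]
      exact mul_mem (zpow_mem ha _) (zpow_mem hb _)
    rw [zpow_one] at hc
    exact hc
  have h4 : ∀ z, g z ∈ B ↔ z ∈ B := by
    intro z
    have : (⟨g, hg⟩ : K) • z ∈ (⟨g, hg⟩ : K) • B ↔ z ∈ B := Set.smul_mem_smul_set_iff
    rw [h3] at this
    exact this
  rcases h.inv_set h4 with h5 | h5 | h5 | h5
  · rw [h5] at hx; exact hx.elim
  · rw [h5] at hy; exact (hyΔ hy).elim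
  · rw [h5] at hx; exact (hx hxΔ).elim
  · exact h5

theorem Two.block_dvd [Finite Ω] {g : Perm Ω} {Δ : Set Ω} (h : Two g Δ)
    {K : Subgroup (Perm Ω)} (hg : g ∈ K) {B : Set Ω} (hB : IsBlock K B)
    {x : Ω} (hx : x ∈ B) (hBΔ : B ⊆ Δ) : B.ncard ∣ Δ.ncard := by
  have hO := h.orbit_eq (hBΔ hx)
  have hBz : IsBlock (Subgroup.zpowers g) B := by
    rw [isBlock_iff_smul_eq_or_disjoint]
    rintro ⟨z, hz⟩
    have hzK : z ∈ K := (Subgroup.zpowers_le.2 hg) hz
    exact isBlock_iff_smul_eq_or_disjoint.1 hB ⟨z, hzK⟩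
  let C : SubMulAction (Subgroup.zpowers g) Ω :=
    { carrier := orbit (Subgroup.zpowers g) x
      smul_mem' := fun c y hy => mem_orbit_of_mem_orbit c hy }
  have h1 : IsBlock (Subgroup.zpowers g) (Subtype.val ⁻¹' B : Set C) := hBz.subtype_val_preimage
  have htr : IsPretransitive (Subgroup.zpowers g) C := by
    refine ⟨?_⟩
    rintro ⟨y, hy⟩ ⟨z, hz⟩
    have h2 : z ∈ orbit (Subgroup.zpowers g) y := by rw [orbit_eq_iff.2 hy]; exact hz
    obtain ⟨c, hc⟩ := h2
    exact ⟨c, Subtype.ext hc⟩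
  have h2 := h1.ncard_dvd_card ⟨⟨x, mem_orbit_self x⟩, hx⟩
  have h3 : (Subtype.val ⁻¹' B : Set C).ncard = B.ncard := by
    apply Set.ncard_preimage_of_injective_subset_range Subtype.val_injective
    rw [Subtype.range_coe_subtype]
    intro z hz
    have : z ∈ orbit (Subgroup.zpowers g) x := by rw [hO]; exact hBΔ hz
    exact this
  have h4 : Nat.card C = Δ.ncard := by
    have : Nat.card C = Nat.card (orbit (Subgroup.zpowers g) x) := rfl
    rw [this, hO]
    rfl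
  rw [h3, h4] at h2
  exact h2

/-- **A transitive overgroup is primitive** (two cycles of coprime lengths). -/
theorem Two.prim [Finite Ω] {g : Perm Ω} {Δ : Set Ω} (h : Two g Δ)
    (hco : Nat.Coprime Δ.ncard Δᶜ.ncard) {K : Subgroup (Perm Ω)} (hg : g ∈ K) (htr : IsPretransitive K Ω) :
    IsPreprimitive K Ω := by
  refine ⟨fun {B} hB => ?_⟩
  by_cases hne : B.Nonempty
  · obtain ⟨x, hx⟩ := hne
    by_cases hu : B = Set.univ
    · exact Or.inr hu
    · left
      rw [← Set.ncard_le_one_iff_subsingleton]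
      have hn : B.ncard ∣ Nat.card Ω := hB.ncard_dvd_card ⟨x, hx⟩
      have hs : Δ.ncard + Δᶜ.ncard = Nat.card Ω := Set.ncard_add_ncard_compl Δ
      have key : B.ncard ∣ Δ.ncard ∨ B.ncard ∣ Δᶜ.ncard := by
        by_cases hxΔ : x ∈ Δ
        · left
          refine h.block_dvd hg hB hx fun y hy => ?_
          by_contra hyΔ
          exact hu (h.block_eq_univ hco hg hB hx hxΔ hy hyΔ)
        · right
          refine h.compl.block_dvd hg hB hx fun y hy => ?_
          by_contra hyΔ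
          rw [Set.mem_compl_iff, not_not] at hyΔ
          exact hu (h.block_eq_univ hco hg hB hy hyΔ hx hxΔ)
      have h1 : B.ncard ∣ Δ.ncard ∧ B.ncard ∣ Δᶜ.ncard := by
        rcases key with h1 | h1
        · exact ⟨h1, (Nat.dvd_add_right h1).1 (hs ▸ hn)⟩
        · exact ⟨(Nat.dvd_add_left h1).1 (hs ▸ hn), h1⟩
      have h2 : B.ncard ∣ 1 := by
        rw [← hco.gcd_eq_one]
        exact Nat.dvd_gcd h1.1 h1.2
      exact (Nat.le_of_dvd one_pos h2)
  · left
    rw [Set.not_nonempty_iff_eq_empty] at hne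
    rw [hne]
    exact Set.subsingleton_empty

/-- an intransitive overgroup fixes `Δ` -/
theorem Two.fix_of_not_trans [Finite Ω] {g : Perm Ω} {Δ : Set Ω} (h : Two g Δ) (hΔ : Δ.Nonempty)
    {K : Subgroup (Perm Ω)} (hg : g ∈ K) (htr : ¬ IsPretransitive K Ω) : ∀ a ∈ K, ∀ x, a x ∈ Δ ↔ x ∈ Δ := by
  obtain ⟨x, hx⟩ := hΔ
  have hO : orbit K x = Δ := by
    have h1 : ∀ z, g z ∈ orbit K x ↔ z ∈ orbit K x := by
      intro z
      have : (⟨g, hg⟩ : K) • z ∈ orbit K x ↔ z ∈ orbit K x := by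
        constructor
        · intro hz
          have := mem_orbit_of_mem_orbit (⟨g, hg⟩ : K)⁻¹ hz
          rwa [inv_smul_smul] at this
        · exact mem_orbit_of_mem_orbit _
      exact this
    rcases h.inv_set h1 with h2 | h2 | h2 | h2
    · have := mem_orbit_self (M := K) x
      rw [h2] at this
      exact this.elim
    · exact h2
    · have := mem_orbit_self (M := K) x
      rw [h2] at this
      exact (this hx).elim
    · exact (htr ((isPretransitive_iff_orbit_eq_univ x).2 h2)).elim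
  intro a ha y
  rw [← hO]
  constructor
  · intro hy
    have := mem_orbit_of_mem_orbit (⟨a, ha⟩ : K)⁻¹ hy
    have e : (⟨a, ha⟩ : K)⁻¹ • a y = y := inv_smul_smul (⟨a, ha⟩ : K) y
    rwa [e] at this
  · intro hy
    exact mem_orbit_of_mem_orbit (⟨a, ha⟩ : K) hy

end

/-! ### existence -/

theorem two_sum {k l : ℕ} : Two (Perm.sumCongr (finRotate (k + 1)) (finRotate (l + 1)))
    (Set.range (Sum.inl : Fin (k + 1) → Fin (k + 1) ⊕ Fin (l + 1))) := by
  have hrot : ∀ (m : ℕ) (x y : Fin (m + 1)), ∃ i : ℤ, ((finRotate (m + 1)) ^ i) x = y := by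
    intro m x y
    rcases m with _ | m
    · exact ⟨0, Subsingleton.elim (α := Fin 1) _ _⟩
    · have hc := isCycle_finRotate (n := m)
      exact hc.exists_zpow_eq (by rw [← Perm.mem_support, support_finRotate]; exact Finset.mem_univ _)
        (by rw [← Perm.mem_support, support_finRotate]; exact Finset.mem_univ _)
  have hz : ∀ (i : ℤ) (a : Perm (Fin (k + 1))) (b : Perm (Fin (l + 1))),
      (Perm.sumCongr a b) ^ i = Perm.sumCongr (a ^ i) (b ^ i) := by
    intro i a b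
    have := (map_zpow (Perm.sumCongrHom (Fin (k + 1)) (Fin (l + 1))) (a, b) i).symm
    exact this
  refine ⟨?_, ?_, ?_⟩
  · rintro (x | x)
    · simp
    · simp
  · rintro _ ⟨x, rfl⟩ _ ⟨y, rfl⟩
    obtain ⟨i, hi⟩ := hrot k x y
    refine ⟨i, ?_⟩
    rw [hz, Perm.sumCongr_apply, Sum.map_inl, hi]
  · rintro (x | x) hx (y | y) hy
    · exact (hx ⟨x, rfl⟩).elim
    · exact (hx ⟨x, rfl⟩).elim
    · exact (hy ⟨y, rfl⟩).elim
    · obtain ⟨i, hi⟩ := hrot l x y
      refine ⟨i, ?_⟩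
      rw [hz, Perm.sumCongr_apply, Sum.map_inr, hi]

theorem two_transport {Ω Ω' : Type*} (e : Ω ≃ Ω') {g : Perm Ω} {Δ : Set Ω} (h : Two g Δ) :
    Two (e.permCongr g) (e '' Δ) := by
  have hm : ∀ x, x ∈ e '' Δ ↔ e.symm x ∈ Δ := by
    intro x
    rw [Set.mem_image]
    constructor
    · rintro ⟨y, hy, rfl⟩
      rwa [Equiv.symm_apply_apply]
    · intro hx
      exact ⟨_, hx, Equiv.apply_symm_apply _ _⟩
  have hz : ∀ i : ℤ, (e.permCongr g) ^ i = e.permCongr (g ^ i) := by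
    intro i
    exact (map_zpow e.permCongrHom g i).symm
  refine ⟨fun x => ?_, fun x hx y hy => ?_, fun x hx y hy => ?_⟩
  · rw [hm, hm, Equiv.permCongr_apply, Equiv.symm_apply_apply, h.inv]
  · obtain ⟨i, hi⟩ := h.tr _ ((hm x).1 hx) _ ((hm y).1 hy)
    refine ⟨i, ?_⟩
    rw [hz, Equiv.permCongr_apply, hi, Equiv.apply_symm_apply]
  · obtain ⟨i, hi⟩ := h.tr' _ (fun hc => hx ((hm x).2 hc)) _ (fun hc => hy ((hm y).2 hc))
    refine ⟨i, ?_⟩
    rw [hz, Equiv.permCongr_apply, hi, Equiv.apply_symm_apply]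

/-- **two-cycle elements of `A_n`** -/
theorem exists_two {n k : ℕ} (hn : Even n) (hk : Odd k) (hkn : k < n) :
    ∃ (g : ↥(alternatingGroup (Fin n))) (Δ : Set (Fin n)), Two (g : Perm (Fin n)) Δ ∧ Δ.ncard = k ∧ Δᶜ.ncard = n - k ∧
      orderOf g = Nat.lcm k (n - k) := by
  obtain ⟨k, rfl⟩ : ∃ k', k = k' + 1 := ⟨k - 1, by rcases hk with ⟨m, hm⟩; omega⟩
  obtain ⟨l, hl⟩ : ∃ l, n = (k + 1) + (l + 1) := ⟨n - k - 2, by omega⟩
  subst hl
  let e : Fin (k + 1) ⊕ Fin (l + 1) ≃ Fin ((k + 1) + (l + 1)) := finSumFinEquiv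
  have hs : Perm.sign (e.permCongr (Perm.sumCongr (finRotate (k + 1)) (finRotate (l + 1)))) = 1 := by
    rw [Perm.sign_permCongr, Perm.sign_sumCongr, sign_finRotate, sign_finRotate, ← pow_add]
    apply Even.neg_one_pow
    rcases hn with ⟨m, hm⟩
    exact ⟨m - 1, by omega⟩
  refine ⟨⟨_, Perm.mem_alternatingGroup.2 hs⟩, _, two_transport e two_sum, ?_, ?_, ?_⟩
  · rw [Set.ncard_image_of_injective _ e.injective, ← Set.image_univ,
      Set.ncard_image_of_injective _ Sum.inl_injective, Set.ncard_univ, Nat.card_eq_fintype_card, Fintype.card_fin]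
  · have h1 := Set.ncard_add_ncard_compl (e '' Set.range (Sum.inl : Fin (k + 1) → Fin (k + 1) ⊕ Fin (l + 1)))
    rw [Set.ncard_image_of_injective _ e.injective, ← Set.image_univ,
      Set.ncard_image_of_injective _ Sum.inl_injective, Set.ncard_univ, Nat.card_eq_fintype_card, Fintype.card_fin,
      Nat.card_eq_fintype_card, Fintype.card_fin] at h1
    rw [← Set.image_univ (f := (Sum.inl : Fin (k + 1) → Fin (k + 1) ⊕ Fin (l + 1)))]
    omega
  · have ho : ∀ m : ℕ, orderOf (finRotate (m + 1)) = m + 1 := by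
      intro m
      rcases m with _ | m
      · exact orderOf_eq_one_iff.2 (Subsingleton.elim (α := Perm (Fin 1)) _ _)
      · rw [(isCycle_finRotate (n := m)).orderOf, support_finRotate, Finset.card_univ, Fintype.card_fin]
    rw [Subgroup.orderOf_mk]
    have h1 : e.permCongr (Perm.sumCongr (finRotate (k + 1)) (finRotate (l + 1))) =
      (e.permCongrHom.toMonoidHom.comp (Perm.sumCongrHom (Fin (k + 1)) (Fin (l + 1)))) (finRotate (k + 1), finRotate (l + 1)) := rfl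
    rw [h1, orderOf_injective _ (e.permCongrHom.injective.comp Perm.sumCongrHom_injective), Prod.orderOf_mk, ho, ho]
    congr 1
    omega

end Cfsg.Agent.H434.Cov
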